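-- Generated: the Schur multiplier of `A6` from a labelled coset table.
import Cfsg.Agent.Lib.KnownSimple.A6Lab.ChecksA
import Cfsg.Agent.Lib.KnownSimple.A6Lab.ChecksB0
import Cfsg.Agent.Lib.KnownSimple.LabFinalA
import Cfsg.Agent.Lib.KnownSimple.LabPerm

set_option autoImplicit false
set_option maxRecDepth 100000

universe u

namespace Cfsg.Agent.Lib.KnownSimple.A6Lab

open Cfsg.Agent.Lib.KnownSimple.Lab Subgroup 

def Uw : List ℕ := [0, 1]
def Vw : List ℕ := []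
def gwx : List ℕ := [1, 0, 1, 0, 1, 1, 0, 1, 0, 1, 2, 3, 2, 3, 3, 2, 3, 3, 2, 3]
def gwy : List ℕ := [0, 1, 0, 1, 0, 1, 0, 3, 2, 1, 1, 2, 3, 3, 2, 3, 3, 2]
def gw (a : ℕ) : List ℕ := [gwx, gwy].getD a []

def Ls : List (List ℕ) := [[1, 0, 3, 2, 4, 5], [1, 2, 4, 5, 0, 3], [1, 0, 3, 2, 4, 5], [4, 0, 1, 5, 2, 3]]
def chk (w : List ℕ) : Bool := Cfsg.Agent.Lib.KnownSimple.LabPerm.chkP 6 Ls w
def chkne (w : List ℕ) : Bool := Cfsg.Agent.Lib.KnownSimple.LabPerm.chkneP 6 Ls w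


theorem hU4 : ∀ a ∈ Uw, a < 2 * 2 := by decide +kernel
theorem hV4 : ∀ a ∈ Vw, a < 2 * 2 := by decide +kernel

theorem hgw1 : ∀ a < 2, ∀ b ∈ gw a, b < 2 * 2 := by
  intro a ha
  interval_cases a
  · exact (by decide +kernel : ∀ b ∈ gwx, b < 2 * 2)
  · exact (by decide +kernel : ∀ b ∈ gwy, b < 2 * 2)

theorem hgw3 : ∀ a < 2, balanced 2 (gw a) = true := by
  intro a ha
  interval_cases a <;> decide +kernel

theorem hT : ∀ a < D.k, ∀ i < D.n, D.T a i < D.n := by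
  intro a ha i hi
  have ha' : a < 4 := ha
  have hi' : i < 72 := hi
  show D.T a i < 72
  interval_cases a
  · exact Nat.le_of_ble_eq_true (hT0 i hi')
  · exact Nat.le_of_ble_eq_true (hT1 i hi')
  · exact Nat.le_of_ble_eq_true (hT2 i hi')
  · exact Nat.le_of_ble_eq_true (hT3 i hi')

theorem hRchk : allI (fun ρ => (Rget ρ).all (fun a => Nat.blt a 4)) 0 8 = true := by decide +kernel

theorem hR : ∀ ρ < D.r, ∀ a ∈ D.R ρ, a < D.k := by
  intro ρ hρ a ha
  have h1 := of_allI hRchk ρ (Nat.zero_le _) hρ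
  exact Nat.le_of_ble_eq_true (List.all_eq_true.mp h1 a ha)

theorem hR4 : ∀ ρ < D.r, ∀ a ∈ D.R ρ, a < 4 := hR

theorem hp : ∀ j, 0 < j → j < D.n → D.par j < j ∧ D.gn j < D.k ∧ D.T (D.gn j) (D.par j) = j := by
  intro j h0 hj
  have h := hTree j hj
  simp only [Bool.or_eq_true, Bool.and_eq_true, Nat.beq_eq, Nat.blt_eq] at h
  rcases h with h | ⟨⟨h1, h2⟩, h3⟩
  · omega
  · exact ⟨h1, h2, h3⟩

theorem hZ : ∀ ρ < D.r, D.Z ρ = true → ∃ a < 2, D.R ρ = [a, a + 2] ∨ D.R ρ = [a + 2, a] ∨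
    D.R ρ = (a + 2) :: gw a := by
  intro ρ hρ h
  have hρ' : ρ < 8 := hρ
  interval_cases ρ
  · exact ⟨0, by norm_num, Or.inr (Or.inl rfl)⟩
  · exact ⟨0, by norm_num, Or.inl rfl⟩
  · exact ⟨1, by norm_num, Or.inr (Or.inl rfl)⟩
  · exact ⟨1, by norm_num, Or.inl rfl⟩
  · exact absurd h (by decide +kernel)
  · exact absurd h (by decide +kernel)
  · exact ⟨0, by norm_num, Or.inr (Or.inr rfl)⟩
  · exact ⟨1, by norm_num, Or.inr (Or.inr rfl)⟩

theorem hPkchk : allI (fun t => (Nat.blt (D.P t).1 4 && Nat.blt (D.P t).2 72) ||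
    (Nat.ble 4 (D.P t).1 && Nat.blt ((D.P t).1 - 4) 8 && Nat.beq (D.P t).2 0)) 0 7 = true := by decide +kernel

theorem hPk : ∀ t < D.m, ((D.P t).1 < D.k ∧ (D.P t).2 < D.n) ∨
    (D.k ≤ (D.P t).1 ∧ (D.P t).1 - D.k < D.r ∧ (D.P t).2 = 0) := by
  intro t ht
  have := of_allI hPkchk t (Nat.zero_le _) ht
  simp only [Bool.or_eq_true, Bool.and_eq_true, Nat.beq_eq, Nat.blt_eq, Nat.ble_eq, and_assoc] at this
  exact this

theorem hPLchk : allI (fun t => vbeq (D.L (D.P t).1 (D.P t).2) (vunit 7 t)) 0 7 = true := by decide +kernel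

theorem hPL : ∀ t < D.m, vbeq (D.L (D.P t).1 (D.P t).2) (vunit D.m t) = true := fun t ht =>
  of_allI hPLchk t (Nat.zero_le _) ht

theorem hvar : ∀ a < D.k, ∀ i < D.n, Dat.varOK D a i = true := by
  intro a ha i hi
  have ha' : a < 4 := ha
  have hi' : i < 72 := hi
  interval_cases a
  · exact hV0 i hi'
  · exact hV1 i hi'
  · exact hV2 i hi'
  · exact hV3 i hi'

theorem hrvchk : allI (fun ρ => Dat.relOK D ρ) 0 8 = true := by decide +kernel

theorem hrv : ∀ ρ < D.r, Dat.relOK D ρ = true := fun ρ hρ => of_allI hrvchk ρ (Nat.zero_le _) hρ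

def rels : List (ℕ × ℕ) := [(6, 0), (7, 0), (2, 40), (2, 58), (5, 40), (0, 69), (5, 20), (5, 61), (4, 0), (2, 24), (0, 21), (4, 52), (2, 65), (5, 67)]

theorem hrelschk : rels.all (fun x => Dat.relClosed D x.1 x.2) = true := by decide +kernel

theorem hrels : ∀ x ∈ rels, Dat.relClosed D x.1 x.2 = true := fun x hx => List.all_eq_true.mp hrelschk x hx

def gv0 : List ℤ := [0, 0, 0, 80, 0, (-20), (-105)]
def wN0 : List ℤ := [150, (-330), 0, 0, (-275), (-164), 0, 0, (-65), 0, 0, (-144), 0, 16]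
def gv1 : List ℤ := [0, 0, 0, 96, 0, (-24), (-126)]
def wN1 : List ℤ := [150, (-330), 0, 0, (-275), (-164), 0, 0, (-65), 0, 0, (-144), 0, 16]
def gvs : List (List ℤ) := [gv0, gv1]
def bL : List (List ℤ) := [[(-65), 65], [(-40), 40], [(-25), 25], [(-18), 18], [(-34), 34], [(-35), 35], [(-7), 7]]
def WL : List (List ℤ) := [[(-324), 710, 0, 0, 595, 359, 0, 0, 140, 0, 0, 307, 0, (-35)], [(-201), 435, 0, 0, 365, 224, 0, 0, 88, 0, 0, 186, 0, (-22)], [(-123), 275, 0, 0, 230, 137, 0, 0, 52, 0, 0, 120, 0, (-13)], [(-91), 195, 0, 0, 164, 101, 0, 0, 40, 0, 0, 83, 0, (-10)], [(-168), 373, 0, 0, 312, 186, 0, 0, 72, 0, 0, 163, 0, (-18)], [(-175), 381, 0, 0, 320, 194, 0, 0, 76, 0, 0, 164, 0, (-19)], [(-36), 76, 0, 0, 64, 40, 0, 0, 16, 0, 0, 32, 0, (-4)]]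

theorem hfinchk : allI (fun u => vbeq (vunit 7 u) (vadd (lin (bL.getD u []) gvs)
    (lin (WL.getD u []) (rels.map fun x => Dat.relRow D x.1 x.2)))) 0 7 = true := by decide +kernel

theorem hfin : ∀ u < D.m, vbeq (vunit D.m u) (vadd (lin (bL.getD u []) gvs)
    (lin (WL.getD u []) (rels.map fun x => Dat.relRow D x.1 x.2))) = true := fun u hu =>
  of_allI hfinchk u (Nat.zero_le _) hu

theorem hN0 : vbeq (vscale ((6 : ℕ) : ℤ) gv0) (lin wN0 (rels.map fun x => Dat.relRow D x.1 x.2)) = true := by decide +kernel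
theorem hN1 : vbeq (vscale ((5 : ℕ) : ℤ) gv1) (lin wN1 (rels.map fun x => Dat.relRow D x.1 x.2)) = true := by decide +kernel

/-- The labels. -/
def lab (a i : ℕ) : ZMod 6 := ((lN0 a i : ℕ) : ZMod 6)

/-- The values of the relators. -/
def vv (ρ : ℕ) : ZMod 6 := ((nth vvL0 ρ : ℕ) : ZMod 6)

theorem hRL : ∀ ρ < D.r, ∀ i < D.n, walk D.T (D.R ρ) i = i ∧ Dat.pathSum lab D.T (D.R ρ) i = vv ρ := by
  intro ρ hρ i hi
  have hρ' : ρ < 8 := hρ
  have hi' : i < 72 := hi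
  interval_cases ρ
  · exact (of_lowOK (hL0c0 i hi'))
  · exact (of_lowOK (hL1c0 i hi'))
  · exact (of_lowOK (hL2c0 i hi'))
  · exact (of_lowOK (hL3c0 i hi'))
  · exact (of_lowOK (hL4c0 i hi'))
  · exact (of_lowOK (hL5c0 i hi'))
  · exact (of_lowOK (hL6c0 i hi'))
  · exact (of_lowOK (hL7c0 i hi'))

theorem hinv : ∀ a < 2 * 2, ∀ i < D.n, D.T (invL 2 a) (D.T a i) = i ∧
    lab (invL 2 a) (D.T a i) + lab a i = 0 := by
  apply hinv_of_rel'
  intro a ha i hi
  have ha' : a < 4 := ha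
  interval_cases a
  · exact (of_lowOK0 (hL0c0 i hi))
  · exact (of_lowOK0 (hL2c0 i hi))
  · exact (of_lowOK0 (hL1c0 i hi))
  · exact (of_lowOK0 (hL3c0 i hi))

theorem hgz : ∀ a < 2, ∀ i < D.n, walk D.T (gw a) i = D.T a i ∧
    Dat.pathSum lab D.T (gw a) i = lab a i := by
  intro a ha
  have hwalk : ∀ i < D.n, walk D.T (gw a) i < D.n := fun i hi =>
    walk_lt (k := D.k) hT (hgw1 a ha) hi
  have ha2 : a + 2 < 2 * 2 := by omega
  have ha3 : a < 2 * 2 := by omega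
  have e1 : invL 2 a = a + 2 := by unfold invL; rw [if_pos ha]
  have e2 : invL 2 (a + 2) = a := by unfold invL; rw [if_neg (by omega)]; omega
  have h1 := hinv a ha3
  have h2 := hinv (a + 2) ha2
  rw [e1] at h1
  rw [e2] at h2
  refine hgz_of_rel' (s := 2) hwalk h2 h1 ?_
  intro i hi
  interval_cases a
  · exact (of_lowOK0 (hL6c0 i hi))
  · exact (of_lowOK0 (hL7c0 i hi))

theorem hvals : AddSubgroup.closure (vv '' {ρ | ρ < D.r}) = ⊤ := by
  have hm : ∀ ρ < 8, vv ρ ∈ AddSubgroup.closure (vv '' {ρ | ρ < D.r}) :=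
    fun ρ h => AddSubgroup.subset_closure ⟨ρ, h, rfl⟩
  apply closure_top_one
  · rw [show (1 : ZMod 6) = vv 4 by decide +kernel]
    exact (hm 4 (by norm_num))

def prL : List ℕ := [0, 0, 0, 4, 2, 0, 1]
def peL : List ℕ := [0, 0, 0, 0, 0, 0, 0]
def pcL0 : List ℕ := [1, 2, 5, 4, 4, 1, 3]
def pc (u : ℕ) : ZMod 6 := ((nth pcL0 u : ℕ) : ZMod 6)

theorem hparW : parWord 2 Uw Vw D.T D.par D.gn (D.P 0).1 (D.P 0).2 (nth prL 0) (nth peL 0) = pw0 ∧ parWord 2 Uw Vw D.T D.par D.gn (D.P 1).1 (D.P 1).2 (nth prL 1) (nth peL 1) = pw1 ∧ parWord 2 Uw Vw D.T D.par D.gn (D.P 2).1 (D.P 2).2 (nth prL 2) (nth peL 2) = pw2 ∧ parWord 2 Uw Vw D.T D.par D.gn (D.P 3).1 (D.P 3).2 (nth prL 3) (nth peL 3) = pw3 ∧ parWord 2 Uw Vw D.T D.par D.gn (D.P 4).1 (D.P 4).2 (nth prL 4) (nth peL 4) = pw4 ∧ parWord 2 Uw Vw D.T D.par D.gn (D.P 5).1 (D.P 5).2 (nth prL 5) (nth peL 5) = pw5 ∧ parWord 2 Uw Vw D.T D.par D.gn (D.P 6).1 (D.P 6).2 (nth prL 6)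 (nth peL 6) = pw6 := by decide +kernel

theorem hparL : ∀ u < D.m, (D.P u).1 < D.k → ∀ i < D.n,
    walk D.T (parWord 2 Uw Vw D.T D.par D.gn (D.P u).1 (D.P u).2 (nth prL u) (nth peL u)) i = i ∧
    Dat.pathSum lab D.T
      (parWord 2 Uw Vw D.T D.par D.gn (D.P u).1 (D.P u).2 (nth prL u) (nth peL u)) i = pc u := by
  intro u hu h i hi
  have hu' : u < 7 := hu
  have hi' : i < 72 := hi
  interval_cases u
  · rw [hparW.1]
    exact (of_lowOK (hLP0c0 i hi'))
  · rw [hparW.2.1]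
    exact (of_lowOK (hLP1c0 i hi'))
  · rw [hparW.2.2.1]
    exact (of_lowOK (hLP2c0 i hi'))
  · rw [hparW.2.2.2.1]
    exact (of_lowOK (hLP3c0 i hi'))
  · rw [hparW.2.2.2.2.1]
    exact (of_lowOK (hLP4c0 i hi'))
  · rw [hparW.2.2.2.2.2.1]
    exact (of_lowOK (hLP5c0 i hi'))
  · rw [hparW.2.2.2.2.2.2]
    exact (of_lowOK (hLP6c0 i hi'))

theorem hUo : ∀ i < D.n, walk D.T (powW Uw 5) i = i ∧
    Dat.pathSum lab D.T (powW Uw 5) i = ((4 : ℕ) : ZMod 6) := by
  intro i hi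
  rw [show powW Uw 5 = wU by decide +kernel]
  exact (of_lowOK (hLUc0 i hi))

theorem hVo : ∀ i < D.n, walk D.T (powW Vw 1) i = i ∧
    Dat.pathSum lab D.T (powW Vw 1) i = ((0 : ℕ) : ZMod 6) := by
  intro i hi
  rw [show powW Vw 1 = wV by decide +kernel]
  exact (of_lowOK (hLVc0 i hi))

theorem hVU : ∀ i < D.n, walk D.T (Vw ++ Uw ++ invW 2 Vw ++ invW 2 (powW Uw 1)) i = i ∧
    Dat.pathSum lab D.T (Vw ++ Uw ++ invW 2 Vw ++ invW 2 (powW Uw 1)) i = ((0 : ℕ) : ZMod 6) := by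
  intro i hi
  rw [show Vw ++ Uw ++ invW 2 Vw ++ invW 2 (powW Uw 1) = w3 by decide +kernel]
  exact (of_lowOK (hLKc0 i hi))

theorem c_rel : allI (fun ρ => chk (Rget ρ)) 0 8 = true := by decide +kernel
theorem c_3 : chk (Vw ++ Uw ++ invW 2 Vw ++ invW 2 (powW Uw 1)) = true := by decide +kernel
theorem c_Uo : chk (powW Uw 5) = true := by decide +kernel
theorem c_Une : chkne Uw = true := by decide +kernel
theorem c_p0 : chk pw0 = true := by decide +kernel
theorem c_p1 : chk pw1 = true := by decide +kernel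
theorem c_p2 : chk pw2 = true := by decide +kernel
theorem c_p3 : chk pw3 = true := by decide +kernel
theorem c_p4 : chk pw4 = true := by decide +kernel
theorem c_p5 : chk pw5 = true := by decide +kernel
theorem c_p6 : chk pw6 = true := by decide +kernel

section main

variable {G : Type u} [Group G] [Finite G] (g : ℕ → G)

/-- The multiplier, from the letters. -/
theorem main (hgi : ∀ a < 2, g (a + 2) = (g a)⁻¹) (hgen : closure (g '' {a | a < 2 * 2}) = ⊤)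
    (heq : ∀ w : List ℕ, (∀ a ∈ w, a < 4) → chk w = true → wval g w = 1)
    (hne : ∀ w : List ℕ, (∀ a ∈ w, a < 4) → chkne w = true → wval g w ≠ 1)
    (hcardG : Nat.card G = 360) :
    Cfsg.HasSchurMultiplier G (Multiplicative (ZMod 6)) := by
  have hcard : Nat.card G = D.n * (5 * 1) := hcardG
  have ho : orderOf (wval g Uw) = 5 := by
    haveI : Fact (Nat.Prime 5) := ⟨by norm_num⟩
    apply orderOf_eq_prime
    · rw [← wval_powW]
      exact heq _ (powW_letters Uw 5 4 hU4) c_Uo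
    · exact hne _ hU4 c_Une
  have ho' : orderOf (wval g Vw) = 1 := by
    rw [show wval g Vw = 1 from rfl]
    exact orderOf_one
  have hVUG : wval g Vw * wval g Uw * (wval g Vw)⁻¹ * (wval g Uw ^ 1)⁻¹ = 1 := by
    have h1 := heq _ (by decide +kernel) c_3
    simp only [wval_append] at h1
    rw [wval_invW g 2 hgi _ hV4, wval_invW g 2 hgi _ (powW_letters Uw 1 4 hU4), wval_powW] at h1
    exact h1
  have hrelG : ∀ ρ < D.r, wval g (D.R ρ) = 1 := by
    intro ρ hρ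
    exact heq _ (hR4 ρ hρ) (of_allI c_rel ρ (Nat.zero_le _) hρ)
  have hgw2 : ∀ a < 2, wval g (gw a) = g a := by
    intro a ha
    interval_cases a
    · have h := hrelG 6 (by decide +kernel)
      rw [show D.R 6 = 2 :: gwx from rfl, wval_cons, show g 2 = (g 0)⁻¹ from hgi 0 (by norm_num)] at h
      exact (inv_mul_eq_one.mp h).symm
    · have h := hrelG 7 (by decide +kernel)
      rw [show D.R 7 = 3 :: gwy from rfl, wval_cons, show g 3 = (g 1)⁻¹ from hgi 1 (by norm_num)] at h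
      exact (inv_mul_eq_one.mp h).symm
  have hparG : ∀ u < D.m, (D.P u).1 < D.k →
      wval g (parWord 2 Uw Vw D.T D.par D.gn (D.P u).1 (D.P u).2 (nth prL u) (nth peL u)) = 1 := by
    intro u hu h
    have hu' : u < 7 := hu
    interval_cases u
    · rw [hparW.1]
      exact heq _ (by decide +kernel) c_p0
    · rw [hparW.2.1]
      exact heq _ (by decide +kernel) c_p1
    · rw [hparW.2.2.1]
      exact heq _ (by decide +kernel) c_p2
    · rw [hparW.2.2.2.1]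
      exact heq _ (by decide +kernel) c_p3
    · rw [hparW.2.2.2.2.1]
      exact heq _ (by decide +kernel) c_p4
    · rw [hparW.2.2.2.2.2.1]
      exact heq _ (by decide +kernel) c_p5
    · rw [hparW.2.2.2.2.2.2]
      exact heq _ (by decide +kernel) c_p6
  have hcop : ∀ (Γ : Type u) [Group Γ] [Finite Γ] (σ : Γ →* G), Cfsg.IsStemExtension σ →
      Nat.Coprime (5 * 1) (Nat.card σ.ker) := by
    intro Γ _ _ σ hσ
    have c5 : Nat.Coprime 5 (Nat.card σ.ker) := (Nat.Prime.coprime_iff_not_dvd (by norm_num)).mpr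
      (not_dvd_card_ker hσ (by norm_num) hcardG (by norm_num) (by norm_num) (wval g Uw) (by rw [ho] <;> norm_num))
    rw [show 5 * 1 = 5 ^ 1 by norm_num]
    exact (Nat.Coprime.pow_left 1 c5)
  have hSurj : ∀ (Γ : Type u) [Group Γ] [Finite Γ] (σ : Γ →* G), Cfsg.IsStemExtension σ →
      ∀ f : List ℤ → σ.ker, (∀ x : σ.ker, x ∈ closure (f '' {v | v ∈ gvs})) →
      (∀ (v : List ℤ) (N : ℤ) (w : List ℤ),
        vbeq (vscale N v) (lin w (rels.map fun x => Dat.relRow D x.1 x.2)) = true → f v ^ N = 1) →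
      ∃ π : Multiplicative (ZMod 6) →* σ.ker, Function.Surjective π := by
    intro Γ _ _ σ hσ f hf1 hf2
    have c5 : Nat.Coprime 5 (Nat.card σ.ker) := (Nat.Prime.coprime_iff_not_dvd (by norm_num)).mpr
      (not_dvd_card_ker hσ (by norm_num) hcardG (by norm_num) (by norm_num) (wval g Uw) (by rw [ho] <;> norm_num))
    have e0 : f gv0 ^ 6 = 1 := by
      have := hf2 gv0 ((6 : ℕ) : ℤ) wN0 hN0
      rwa [zpow_natCast] at this
    have e1 : f gv1 ^ 5 = 1 := by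
      have := hf2 gv1 ((5 : ℕ) : ℤ) wN1 hN1
      rwa [zpow_natCast] at this
    have r1 : f gv1 = 1 := eq_one_of_coprime e1 (by rw [show 5 = 5 ^ 1 by norm_num]; exact Nat.Coprime.pow_left 1 c5)
    have hgen' : ∀ x : σ.ker, x ∈ closure ({f gv0} : Set σ.ker) := by
      intro x
      refine (show closure (f '' {v | v ∈ gvs}) ≤ _ from ?_) (hf1 x)
      rw [closure_le]
      rintro _ ⟨v, hv, rfl⟩
      simp only [Set.mem_ofPred_eq, gvs, List.mem_cons, List.not_mem_nil, or_false] at hv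
      rcases hv with rfl | rfl
      · exact subset_closure (by simp)
      · rw [r1]; exact one_mem _
    exact surj_one 6 _ e0 hgen'
  exact final_A D 2 rfl (by decide +kernel) g hgi hgen Uw Vw hU4 hV4 5 1 1 ho ho' (by norm_num) hcard hVUG
    gw hgw1 hgw2 hgw3 hT hR hp hrelG hZ hPk hPL hvar hrv rels hrels gvs (fun u => bL.getD u []) (fun u => WL.getD u [])
    hfin hcop hSurj lab hinv vv hRL hvals hgz _ _ _ hUo hVo hVU (nth prL) (nth peL) pc hparG hparL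

end main

end Cfsg.Agent.Lib.KnownSimple.A6Lab
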