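-- Generated: the letters of the alternating group of degree 6.
import Cfsg.Agent.Lib.KnownSimple.A6Lab.Final
import Cfsg.Agent.Lib.KnownSimple.ThreeCycles

set_option autoImplicit false
set_option maxRecDepth 100000

namespace Cfsg.Agent.Lib.KnownSimple.A6Lab

open Cfsg.Agent.Lib.KnownSimple.Lab Cfsg.Agent.Lib.KnownSimple.LabPerm Subgroup
open Cfsg.Agent.Lib.KnownSimple.ThreeCycles

/-- The first letter. -/
def gx : Equiv.Perm (Fin 6) := mkPerm 6 (by norm_num) (Ls.getD 0 []) (Ls.getD 2 []) (by decide +kernel) (by decide +kernel)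
/-- The second letter. -/
def gy : Equiv.Perm (Fin 6) := mkPerm 6 (by norm_num) (Ls.getD 1 []) (Ls.getD 3 []) (by decide +kernel) (by decide +kernel)

theorem hx : gx ∈ alternatingGroup (Fin 6) := by
  rw [Equiv.Perm.mem_alternatingGroup]
  decide +kernel

theorem hy : gy ∈ alternatingGroup (Fin 6) := by
  rw [Equiv.Perm.mem_alternatingGroup]
  decide +kernel

/-- The letters. -/
def g : ℕ → ↥(alternatingGroup (Fin 6))
  | 0 => ⟨gx, hx⟩
  | 1 => ⟨gy, hy⟩
  | 2 => ⟨gx, hx⟩⁻¹
  | 3 => ⟨gy, hy⟩⁻¹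
  | _ => 1

theorem hgi : ∀ a < 2, g (a + 2) = (g a)⁻¹ := by
  intro a ha
  interval_cases a <;> rfl

theorem hγ : ∀ a < 4, ∀ i : Fin 6, (((alternatingGroup (Fin 6)).subtype (g a) i : Fin 6) : ℕ) =
    Nat.mod ((Ls.getD a []).getD i 0) 6 := by
  intro a ha i
  interval_cases a <;> rfl

theorem wval_apply' (w : List ℕ) (hw : ∀ a ∈ w, a < 4) (i : Fin 6) :
    (((wval g w : ↥(alternatingGroup (Fin 6))) : Equiv.Perm (Fin 6)) i : ℕ) = lwalk 6 Ls w i :=
  wval_apply (alternatingGroup (Fin 6)).subtype Ls g 4 hγ w hw i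

def cw2 : List ℕ := [0, 3, 0, 1, 0, 3, 0, 1, 1, 0, 3]
def cw3 : List ℕ := [0, 1, 0, 1, 1, 0, 1, 0, 3, 0, 1]
def cw4 : List ℕ := [1, 0, 3, 0, 3, 0, 1, 0, 3, 0, 3]
def cw5 : List ℕ := [0, 1, 1, 0, 1, 0, 3, 0, 1, 1]

theorem hgen : closure (g '' {a | a < 2 * 2}) = ⊤ := by
  set K := closure (g '' {a | a < 2 * 2}) with hK
  have hw : ∀ w : List ℕ, (∀ a ∈ w, a < 4) → wval g w ∈ K := by
    intro w hw
    induction w with
    | nil => exact one_mem _
    | cons a w ih =>
      exact mul_mem (subset_closure ⟨a, hw a (by simp), rfl⟩) (ih (fun b hb => hw b (by simp [hb])))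
  have h1 : ∀ x : Equiv.Perm (Fin 6), x.IsThreeCycle → x ∈ K.map (alternatingGroup (Fin 6)).subtype := by
    intro x hx
    have h2 := mem_closure_cyc (a := (0 : Fin 6)) (b := 1) (by decide) hx
    refine (show closure {g : Equiv.Perm (Fin 6) | ∃ i, (0 : Fin 6) ≠ i ∧ (1 : Fin 6) ≠ i ∧ g = cyc 0 1 i} ≤ _ from ?_) h2
    rw [closure_le]
    rintro _ ⟨i, hi0, hi1, rfl⟩
    fin_cases i
    · exact absurd rfl hi0
    · exact absurd rfl hi1
    · refine ⟨wval g cw2, hw cw2 (by decide +kernel), ?_⟩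
      ext t
      show (((wval g cw2 : ↥(alternatingGroup (Fin 6))) : Equiv.Perm (Fin 6)) t : ℕ) = _
      rw [wval_apply' cw2 (by decide +kernel) t]
      revert t
      decide +kernel
    · refine ⟨wval g cw3, hw cw3 (by decide +kernel), ?_⟩
      ext t
      show (((wval g cw3 : ↥(alternatingGroup (Fin 6))) : Equiv.Perm (Fin 6)) t : ℕ) = _
      rw [wval_apply' cw3 (by decide +kernel) t]
      revert t
      decide +kernel
    · refine ⟨wval g cw4, hw cw4 (by decide +kernel), ?_⟩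
      ext t
      show (((wval g cw4 : ↥(alternatingGroup (Fin 6))) : Equiv.Perm (Fin 6)) t : ℕ) = _
      rw [wval_apply' cw4 (by decide +kernel) t]
      revert t
      decide +kernel
    · refine ⟨wval g cw5, hw cw5 (by decide +kernel), ?_⟩
      ext t
      show (((wval g cw5 : ↥(alternatingGroup (Fin 6))) : Equiv.Perm (Fin 6)) t : ℕ) = _
      rw [wval_apply' cw5 (by decide +kernel) t]
      revert t
      decide +kernel
  rw [eq_top_iff]
  rintro ⟨y, hy⟩ _
  have h3 : y ∈ closure {x : Equiv.Perm (Fin 6) | x.IsThreeCycle} := by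
    rw [Equiv.Perm.closure_three_cycles_eq_alternating]
    exact hy
  have h4 : closure {x : Equiv.Perm (Fin 6) | x.IsThreeCycle} ≤ K.map (alternatingGroup (Fin 6)).subtype := by
    rw [closure_le]
    exact h1
  obtain ⟨z, hz, e⟩ := h4 h3
  have : z = ⟨y, hy⟩ := Subtype.ext e
  rwa [← this]

theorem hcardG : Nat.card ↥(alternatingGroup (Fin 6)) = 360 := by
  rw [nat_card_alternatingGroup]
  simp
  decide

/-- The multiplier of the alternating group. -/
theorem result : Cfsg.HasCyclicSchurMultiplier ↥(alternatingGroup (Fin 6)) 6 :=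
  main g hgi hgen
    (wval_eq_one_of (alternatingGroup (Fin 6)).subtype Ls g 4 hγ (Subgroup.subtype_injective _))
    (wval_ne_one_of (alternatingGroup (Fin 6)).subtype Ls g 4 hγ) hcardG

end Cfsg.Agent.Lib.KnownSimple.A6Lab
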